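import Cfsg.Agent.Lib.Helper14.MinIdx.Dich
import Cfsg.Agent.Lib.Helper5.SLGen

set_option autoImplicit false

/-! Generic lemmas for S2140. -/

namespace Cfsg.Agent.Lib.Helper14.MinIdx

open Matrix Cfsg.Agent.Lib.Helper57.RootSL

variable {n : ℕ} {F : Type*} [Field F]

lemma finrank_ann {c : Fin n → F} (hc : c ≠ 0) : Module.finrank F (ann c) = n - 1 := by
  let L : (Fin n → F) →ₗ[F] F :=
    { toFun := fun f => f ⬝ᵥ c
      map_add' := fun a b => add_dotProduct a b c
      map_smul' := fun r a => by simp [smul_dotProduct] }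
  have hker : ann c = LinearMap.ker L := by
    ext f
    rw [LinearMap.mem_ker]; rfl
  have hsurj : LinearMap.range L = ⊤ := by
    rw [LinearMap.range_eq_top]
    intro a
    obtain ⟨χ, hχ⟩ := exists_dot_eq_one hc
    refine ⟨a • χ, ?_⟩
    change (a • χ) ⬝ᵥ c = a
    rw [smul_dotProduct, hχ, smul_eq_mul, mul_one]
  have h := LinearMap.finrank_range_add_finrank_ker L
  rw [hsurj, finrank_top, Module.finrank_self, Module.finrank_fin_fun, ← hker] at h
  omega

lemma card_ann [Fintype F] {c : Fin n → F} (hc : c ≠ 0) :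
    Nat.card (ann c) = Fintype.card F ^ (n - 1) := by
  rw [Module.natCard_eq_pow_finrank (K := F), finrank_ann hc, Nat.card_eq_fintype_card]

/-- `SL_n` is transitive on nonzero vectors (`n ≥ 2`). -/
lemma exists_SL_mulVec (hn : 2 ≤ n) {v v' : Fin n → F} (hv : v ≠ 0) (hv' : v' ≠ 0) :
    ∃ g : SpecialLinearGroup (Fin n) F, (g : Matrix (Fin n) (Fin n) F) *ᵥ v = v' := by
  have indep : ∀ {u u' : Fin n → F}, u ≠ 0 → (∀ a : F, u' ≠ a • u) →
      ∃ g : SpecialLinearGroup (Fin n) F, (g : Matrix (Fin n) (Fin n) F) *ᵥ u = u' := by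
    intro u u' hu hpar
    obtain ⟨χ, h1, h2⟩ := exists_dot_both hu hpar
    have hχ : χ ⬝ᵥ (u' - u) = 0 := by rw [dotProduct_sub, h1, h2, sub_self]
    exact ⟨tv (u' - u) χ, by rw [tv_mulVec hχ, h1, one_smul, add_sub_cancel]⟩
  by_cases hpar : ∃ a : F, v' = a • v
  · obtain ⟨a, rfl⟩ := hpar
    have ha : a ≠ 0 := by
      rintro rfl
      exact hv' (by simp)
    obtain ⟨i, hi⟩ := Function.ne_iff.mp hv
    have hi' : v i ≠ 0 := hi
    obtain ⟨j, hj⟩ : ∃ j : Fin n, j ≠ i := by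
      have : Nontrivial (Fin n) := Fin.nontrivial_iff_two_le.mpr hn
      exact exists_ne i
    have hw : ∀ b : F, (bv j : Fin n → F) ≠ b • v := by
      intro b hb
      have h1 := congrFun hb i
      have h2 := congrFun hb j
      simp only [bv, Pi.smul_apply, smul_eq_mul, Pi.single_apply, if_neg hj.symm] at h1 h2
      have hb0 : b = 0 := by
        rcases mul_eq_zero.mp h1.symm with h | h
        · exact h
        · exact absurd h hi'
      rw [hb0] at h2
      simp at h2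
    obtain ⟨g1, hg1⟩ := indep hv hw
    have hw' : ∀ b : F, a • v ≠ b • (bv j : Fin n → F) := by
      intro b hb
      have hb0 : b ≠ 0 := by
        rintro rfl
        exact hv' (by simpa using hb)
      apply hw (b⁻¹ * a)
      rw [mul_smul, hb, smul_smul, inv_mul_cancel₀ hb0, one_smul]
    obtain ⟨g2, hg2⟩ := indep (bv_ne_zero j) hw'
    exact ⟨g2 * g1, by rw [Matrix.SpecialLinearGroup.coe_mul, ← mulVec_mulVec, hg1, hg2]⟩
  · push Not at hpar
    exact indep hv hpar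

section
variable {Ω : Type*} [MulAction (SpecialLinearGroup (Fin n) F) Ω]

lemma card_fix_conj {g t t' : SpecialLinearGroup (Fin n) F} (h : g * t * g⁻¹ = t') :
    Nat.card {ω : Ω // t • ω = ω} = Nat.card {ω : Ω // t' • ω = ω} := by
  apply Nat.card_congr
  refine ⟨fun ω => ⟨g • ω.1, ?_⟩, fun ω => ⟨g⁻¹ • ω.1, ?_⟩, ?_, ?_⟩
  · rw [← h, mul_smul, mul_smul, inv_smul_smul, ω.2]
  · have h2 : t = g⁻¹ * t' * g := by rw [← h]; group
    rw [h2, mul_smul, mul_smul, smul_inv_smul, ω.2]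
  · intro ω; simp
  · intro ω; simp

/-- if all transvections fix `ω` then `SL_n` fixes `ω`. -/
lemma smul_eq_of_tv (hn : 2 ≤ n) (ω : Ω)
    (h : ∀ v φ : Fin n → F, φ ⬝ᵥ v = 0 → tv v φ • ω = ω) (g : SpecialLinearGroup (Fin n) F) :
    g • ω = ω := by
  have : Nontrivial (Fin n) := Fin.nontrivial_iff_two_le.mpr hn
  refine Cfsg.Agent.Lib.Helper5.SL_transvection_induction (fun g => g • ω = ω) ?_ ?_ g
  · intro i j hij c
    have e : (Matrix.SpecialLinearGroup.transvection hij c : SpecialLinearGroup (Fin n) F)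
        = tv (bv i) (c • bv j) := by
      apply Subtype.ext
      rw [tv_bv_val hij]
      rfl
    rw [e]
    exact h _ _ (smul_dot (bv_dot_bv hij.symm) c)
  · intro A B hA hB
    rw [mul_smul, hB, hA]

/-- transfer of stabilisers. -/
lemma mem_St_smul (g : SpecialLinearGroup (Fin n) F) {c : Fin n → F} (ω : Ω) {f : Fin n → F}
    (hf : f ⬝ᵥ c = 0) :
    tv ((g : Matrix (Fin n) (Fin n) F) *ᵥ c)
      (f ᵥ* ((g⁻¹ : SpecialLinearGroup (Fin n) F) : Matrix (Fin n) (Fin n) F)) • (g • ω) = g • ω ↔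
    tv c f • ω = ω := by
  rw [← conj_tv g hf, mul_smul, mul_smul, inv_smul_smul]
  exact smul_left_cancel_iff g

lemma St_eq_bot_iff {c : Fin n → F} {ω : Ω} :
    (actE Ω c).St ω = ⊥ ↔ ∀ f : Fin n → F, f ⬝ᵥ c = 0 → tv c f • ω = ω → f = 0 := by
  rw [AddSubgroup.eq_bot_iff_forall]
  constructor
  · intro h f hf hfix
    have := h ⟨f, hf⟩ hfix
    exact congrArg Subtype.val this
  · intro h x hx
    exact Subtype.ext (h x.1 x.2 hx)

lemma St_eq_top_iff {c : Fin n → F} {ω : Ω} :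
    (actE Ω c).St ω = ⊤ ↔ ∀ f : Fin n → F, f ⬝ᵥ c = 0 → tv c f • ω = ω := by
  rw [AddSubgroup.eq_top_iff']
  constructor
  · intro h f hf
    exact h ⟨f, hf⟩
  · intro h x
    exact h x.1 x.2

lemma St_bot_smul (g : SpecialLinearGroup (Fin n) F) {c : Fin n → F} {ω : Ω}
    (h : (actE Ω c).St ω = ⊥) :
    (actE Ω ((g : Matrix (Fin n) (Fin n) F) *ᵥ c)).St (g • ω) = ⊥ := by
  rw [St_eq_bot_iff] at h ⊢
  intro f hf hfix
  have hf' : (f ᵥ* (g : Matrix (Fin n) (Fin n) F)) ⬝ᵥ c = 0 := by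
    rw [← dotProduct_mulVec]; exact hf
  have e : (f ᵥ* (g : Matrix (Fin n) (Fin n) F)) ᵥ*
      ((g⁻¹ : SpecialLinearGroup (Fin n) F) : Matrix (Fin n) (Fin n) F) = f := by
    rw [vecMul_vecMul, mul_inv_val, vecMul_one]
  have h1 := (mem_St_smul g ω hf').mp (by rw [e]; exact hfix)
  have h2 := h _ hf' h1
  rw [← e, h2, zero_vecMul]

end

end Cfsg.Agent.Lib.Helper14.MinIdx
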