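import Mathlib
import Cfsg.Agent.Lib.Helper57.RootSLb

set_option autoImplicit false

/-! Shared definitions for S2140 (minimal index of a proper subgroup of `PSL_n(q)`, `n ≥ 3`).
`tv c f = 1 + c fᵀ` is helper57's transvection (`Cfsg.Agent.Lib.Helper57.RootSL.tv`). -/

namespace Cfsg.Agent.Lib.Helper14.MinIdx

open Matrix Cfsg.Agent.Lib.Helper57.RootSL

/-- An action of an additive commutative group `A` on a set `Ω`. -/
structure Act (A Ω : Type*) [AddCommGroup A] where
  τ : A → Equiv.Perm Ω
  add : ∀ a b, τ (a + b) = τ a * τ b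

namespace Act

variable {A Ω : Type*} [AddCommGroup A] (T : Act A Ω)

lemma zero : T.τ 0 = 1 := by
  have h := T.add 0 0
  rw [add_zero] at h
  exact (mul_eq_left.mp h.symm)

lemma neg (a : A) : T.τ (-a) = (T.τ a)⁻¹ := by
  have h := T.add (-a) a
  rw [neg_add_cancel, T.zero] at h
  exact eq_inv_of_mul_eq_one_left h.symm

/-- the stabiliser of a point. -/
def St (ω : Ω) : AddSubgroup A where
  carrier := {a | T.τ a ω = ω}
  add_mem' := by
    intro a b ha hb
    simp only [Set.mem_setOf_eq] at ha hb ⊢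
    rw [T.add, Equiv.Perm.mul_apply, hb, ha]
  zero_mem' := by simp [T.zero]
  neg_mem' := by
    intro a ha
    simp only [Set.mem_setOf_eq] at ha ⊢
    rw [T.neg, Equiv.Perm.inv_eq_iff_eq, ha]

lemma mem_St {ω : Ω} {a : A} : a ∈ T.St ω ↔ T.τ a ω = ω := Iff.rfl

end Act

variable {n : ℕ} {F : Type*} [Field F]

/-- covectors vanishing on `c`. -/
def ann (c : Fin n → F) : Submodule F (Fin n → F) where
  carrier := {f | f ⬝ᵥ c = 0}
  add_mem' := by
    intro a b ha hb
    simp only [Set.mem_setOf_eq] at ha hb ⊢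
    rw [add_dotProduct, ha, hb, add_zero]
  zero_mem' := by simp
  smul_mem' := by
    intro r a ha
    simp only [Set.mem_setOf_eq] at ha ⊢
    rw [smul_dotProduct, ha, smul_zero]

lemma mem_ann {c f : Fin n → F} : f ∈ ann c ↔ f ⬝ᵥ c = 0 := Iff.rfl

/-- the action on `Ω` of the group `E^c = {tv c f : f c = 0}` of transvections with centre `c`,
parametrised by `ann c`. -/
noncomputable def actE (Ω : Type*) [MulAction (SpecialLinearGroup (Fin n) F) Ω] (c : Fin n → F) :
    Act (ann c) Ω where
  τ f := MulAction.toPerm (tv c f.1)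
  add := by
    intro a b
    rw [Submodule.coe_add, ← tv_mul_center a.2 b.2]
    ext ω
    simp [mul_smul]

lemma actE_apply {Ω : Type*} [MulAction (SpecialLinearGroup (Fin n) F) Ω] (c : Fin n → F)
    (f : ann c) (ω : Ω) : (actE Ω c).τ f ω = tv c f.1 • ω := rfl

end Cfsg.Agent.Lib.Helper14.MinIdx
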