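import Cfsg.Agent.Lib.Helper58.MinIdxA3
import Cfsg.Agent.Lib.Helper58.MinIdxA4
import Cfsg.Agent.Lib.Helper58.MinIdxC1

set_option autoImplicit false

/-! The dichotomy for point stabilisers in `E^c` (S2140). -/

namespace Cfsg.Agent.Lib.Helper14.MinIdx

open Matrix Cfsg.Agent.Lib.Helper57.RootSL
open Cfsg.Agent.Lib.Helper58.MinIdx (A1 A2 A3 A4 C1)

variable {n : ℕ} {F : Type*} [Field F]

section
variable {Ω : Type*} [MulAction (SpecialLinearGroup (Fin n) F) Ω]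

lemma St_eq_of_orbit {A : Type*} [AddCommGroup A] (T : Act A Ω) {ω : Ω} (a : A) :
    T.St (T.τ a ω) = T.St ω := by
  ext x
  rw [Act.mem_St, Act.mem_St]
  have hc : T.τ x (T.τ a ω) = T.τ a (T.τ x ω) := by
    rw [← Equiv.Perm.mul_apply, ← Equiv.Perm.mul_apply, ← T.add, ← T.add, add_comm]
  rw [hc]
  exact (T.τ a).apply_eq_iff_eq

/-- conjugating `tv c f` by the transvection `tv y h`, `h c = 0`, `h y = 0`. -/
lemma conj_step {c y h f : Fin n → F} (hc : h ⬝ᵥ c = 0) (hy : h ⬝ᵥ y = 0) (hf : f ⬝ᵥ c = 0) :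
    tv y h * tv c f * (tv y h)⁻¹ = tv c (f - (f ⬝ᵥ y) • h) := by
  rw [conj_tv _ hf, tv_mulVec hy, hc, zero_smul, add_zero, vecMul_tv_inv hy]

end

section
variable [Fintype F]
variable {Ω : Type*} [Fintype Ω] [MulAction (SpecialLinearGroup (Fin n) F) Ω]

lemma inv_step {p : ℕ} [Fact p.Prime] {φ0 : ℕ}
    (hfix : ∀ v φ : Fin n → F, v ≠ 0 → φ ≠ 0 → φ ⬝ᵥ v = 0 →
      Nat.card {ω : Ω // tv v φ • ω = ω} = φ0)
    {c : Fin n → F} (hc : c ≠ 0) (hd : Fintype.card Ω = φ0 + Nat.card (ann c))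
    (M : AddSubgroup (ann c)) (hM : M.index = p) (ω : Ω) (hω : (actE Ω c).St ω ≤ M)
    (D : Submodule F (ann c)) (hD : ∀ x ∈ D, x ∈ M) (h : ann c) (hh : h ∈ D)
    (y : Fin n → F) (hy : h.1 ⬝ᵥ y = 0) (f : ann c) (hf : f ∈ (actE Ω c).St ω) :
    (f.1 ⬝ᵥ y) • h ∈ (actE Ω c).St ω := by
  set T := actE Ω c with hT
  have hfixT : ∀ a : ann c, a ≠ 0 → Nat.card {ω : Ω // T.τ a ω = ω} = φ0 := by
    intro a ha
    exact hfix c a.1 hc (fun h0 => ha (Subtype.ext h0)) a.2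
  set g := tv y h.1 with hg
  -- key relation
  have key : ∀ (f' : ann c) (ω' : Ω), T.τ (f' - (f'.1 ⬝ᵥ y) • h) (g • ω') = g • (T.τ f' ω') := by
    intro f' ω'
    rw [hT, actE_apply, actE_apply]
    have e := conj_step (c := c) (y := y) (h := h.1) (f := f'.1) h.2 hy f'.2
    have e2 : ((f' - (f'.1 ⬝ᵥ y) • h : ann c) : Fin n → F) = f'.1 - (f'.1 ⬝ᵥ y) • h.1 := rfl
    rw [e2, ← e, ← hg, mul_smul, mul_smul, inv_smul_smul]
  have hle : T.St (g • ω) ≤ M := by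
    intro f'' hf''
    rw [Act.mem_St] at hf''
    set f' : ann c := f'' + (f''.1 ⬝ᵥ y) • h with hf'
    have e1 : f'.1 ⬝ᵥ y = f''.1 ⬝ᵥ y := by
      have : f'.1 = f''.1 + (f''.1 ⬝ᵥ y) • h.1 := rfl
      rw [this, add_dotProduct, smul_dotProduct, hy, smul_zero, add_zero]
    have e2 : f' - (f'.1 ⬝ᵥ y) • h = f'' := by
      rw [e1, hf', add_sub_cancel_right]
    have e3 : f' ∈ T.St ω := by
      rw [Act.mem_St]
      have := key f' ω
      rw [e2, hf''] at this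
      exact (smul_left_cancel g this).symm
    have e4 : f'' = f' - (f''.1 ⬝ᵥ y) • h := by rw [hf', add_sub_cancel_right]
    rw [e4]
    exact M.sub_mem (hω e3) (hD _ (D.smul_mem _ hh))
  obtain ⟨a, ha⟩ := A3 T (Fact.out : p.Prime) φ0 hfixT hd M hM hω hle
  have hSt : T.St (g • ω) = T.St ω := by rw [← ha, St_eq_of_orbit]
  have h1 : f - (f.1 ⬝ᵥ y) • h ∈ T.St ω := by
    rw [← hSt, Act.mem_St, key f ω]
    rw [Act.mem_St] at hf
    rw [hf]
  have h2 := (T.St ω).sub_mem hf h1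
  rwa [sub_sub_cancel] at h2

theorem dichotomy (p : ℕ) [Fact p.Prime] [CharP F p] {φ0 : ℕ}
    (hfix : ∀ v φ : Fin n → F, v ≠ 0 → φ ≠ 0 → φ ⬝ᵥ v = 0 →
      Nat.card {ω : Ω // tv v φ • ω = ω} = φ0)
    {c : Fin n → F} (hc : c ≠ 0) (hd : Fintype.card Ω = φ0 + Nat.card (ann c)) (ω : Ω)
    (h0 : (actE Ω c).St ω ≠ ⊥) (h1 : (actE Ω c).St ω ≠ ⊤) :
    ∃ D : Submodule F (ann c), (∀ x ∈ D, x ∈ (actE Ω c).St ω) ∧
      Nat.card (ann c) ≤ Fintype.card F * Nat.card D := by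
  set B := (actE Ω c).St ω with hB
  have hA : ∀ a : ann c, p • a = 0 := by
    intro a
    rw [← Nat.cast_smul_eq_nsmul F, CharP.cast_eq_zero, zero_smul]
  -- common end of the argument
  have fin : ∀ (M : AddSubgroup (ann c)), B ≤ M → M.index = p → ∀ (D : Submodule F (ann c)),
      (∀ x ∈ D, x ∈ M) → ∀ f0 ∈ B, ∀ h ∈ D, (∀ μ : F, f0.1 ≠ μ • h.1) → h ∈ B := by
    intro M hBM hM D hD f0 hf0 h hh hpar
    obtain ⟨y, hy1, hy2⟩ := exists_dot_sep hpar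
    rw [dotProduct_comm] at hy1 hy2
    have := inv_step hfix hc hd M hM ω hBM D hD h hh y hy1 f0 hf0
    rwa [hy2, one_smul] at this
  by_cases hstab : ∀ f ∈ B, ∀ l : F, l • f ∈ B
  · obtain ⟨x, hx⟩ : ∃ x, x ∉ B := by
      by_contra hcon
      push Not at hcon
      exact h1 ((AddSubgroup.eq_top_iff' _).mpr hcon)
    obtain ⟨M, hBM, -, hM⟩ := A4 (Fact.out : p.Prime) hA B hx
    obtain ⟨D, hD, hcard⟩ := C1 (F := F) M hM
    obtain ⟨f0, hf0, hf00⟩ : ∃ f0 ∈ B, f0 ≠ 0 := by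
      by_contra hcon
      push Not at hcon
      exact h0 ((AddSubgroup.eq_bot_iff_forall _).mpr hcon)
    refine ⟨D, ?_, hcard⟩
    intro h hh
    by_cases hpar : ∃ μ : F, h = μ • f0
    · obtain ⟨μ, rfl⟩ := hpar
      exact hstab _ hf0 _
    · push Not at hpar
      apply fin M hBM hM D hD f0 hf0 h hh
      intro μ hμ
      have hμ0 : μ ≠ 0 := by
        rintro rfl
        apply hf00
        apply Subtype.ext
        rw [hμ, zero_smul]; rfl
      apply hpar μ⁻¹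
      apply Subtype.ext
      change h.1 = μ⁻¹ • f0.1
      rw [hμ, smul_smul, inv_mul_cancel₀ hμ0, one_smul]
  · push Not at hstab
    obtain ⟨f0, hf0, l, hl⟩ := hstab
    obtain ⟨M, hBM, hxM, hM⟩ := A4 (Fact.out : p.Prime) hA B hl
    obtain ⟨D, hD, hcard⟩ := C1 (F := F) M hM
    refine ⟨D, ?_, hcard⟩
    intro h hh
    apply fin M hBM hM D hD f0 hf0 h hh
    intro μ hμ
    apply hxM
    apply hD
    have : l • f0 = (l * μ) • h := by
      apply Subtype.ext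
      change l • f0.1 = (l * μ) • h.1
      rw [hμ, smul_smul]
    rw [this]
    exact D.smul_mem _ hh

end

end Cfsg.Agent.Lib.Helper14.MinIdx
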