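import Cfsg.Agent.Lib.Helper14.MinIdx.Count
import Cfsg.Agent.Lib.Helper5.MinIdxP1
import Cfsg.Agent.Lib.Helper5.MinIdxReg
import Cfsg.Agent.Lib.Helper12.MinIdxP9
import Cfsg.Agent.Lib.Helper12.MinIdxP10

set_option autoImplicit false

/-! Assembly of the lower bound for S2140. -/

namespace Cfsg.Agent.Lib.Helper14.MinIdx

open Matrix Cfsg.Agent.Lib.Helper57.RootSL
open Cfsg.Agent.Lib.Helper58.MinIdx (A1 A2 A3 A4 C1)
open Cfsg.Agent.Lib.Helper5.MinIdx (P1)
open Cfsg.Agent.Lib.Helper5.MI (regular_false)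
open Cfsg.Agent.Lib.Helper12.MinIdx (P9 P10)

variable {n : ℕ} {F : Type*} [Field F] [Fintype F]
variable {Ω : Type*} [Fintype Ω] [MulAction (SpecialLinearGroup (Fin n) F) Ω]

/-- hypotheses shared by the lemmas below. -/
structure Hyp (n : ℕ) (F : Type*) [Field F] [Fintype F] (Ω : Type*) [Fintype Ω]
    [MulAction (SpecialLinearGroup (Fin n) F) Ω] (φ0 : ℕ) : Prop where
  hn : 3 ≤ n
  hfix : ∀ v φ : Fin n → F, v ≠ 0 → φ ≠ 0 → φ ⬝ᵥ v = 0 → Nat.card {ω : Ω // tv v φ • ω = ω} = φ0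
  hd : Fintype.card Ω = φ0 + Fintype.card F ^ (n - 1)

namespace Hyp

variable {φ0 : ℕ} (X : Hyp n F Ω φ0)
include X

lemma hfixT {c : Fin n → F} (hc : c ≠ 0) (a : ann c) (ha : a ≠ 0) :
    Nat.card {ω : Ω // (actE Ω c).τ a ω = ω} = φ0 :=
  X.hfix c a.1 hc (fun h0 => ha (Subtype.ext h0)) a.2

lemma hd' {c : Fin n → F} (hc : c ≠ 0) : Fintype.card Ω = φ0 + Nat.card (ann c) := by
  rw [card_ann hc]; exact X.hd

lemma sum_St {c : Fin n → F} (hc : c ≠ 0) :
    ∑ ω : Ω, Nat.card ((actE Ω c).St ω) = Fintype.card F ^ (n - 1) * (φ0 + 1) := by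
  rw [A1 (actE Ω c) φ0 (X.hfixT hc), card_ann hc, X.hd]
  have : 1 ≤ Fintype.card F ^ (n - 1) := Nat.one_le_pow _ _ Fintype.card_pos
  obtain ⟨Q, hQ⟩ : ∃ Q, Fintype.card F ^ (n - 1) = Q + 1 := ⟨_, (Nat.sub_add_cancel this).symm⟩
  rw [hQ, Nat.add_sub_cancel]
  ring

/-- a regular orbit is the only nontrivial orbit. -/
lemma orbit_or_top (p : ℕ) [Fact p.Prime] [CharP F p] {c : Fin n → F} (hc : c ≠ 0) {ω0 : Ω}
    (h0 : (actE Ω c).St ω0 = ⊥) (ω : Ω) :
    (∃ a, (actE Ω c).τ a ω0 = ω) ∨ (actE Ω c).St ω = ⊤ := by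
  by_cases htop : (actE Ω c).St ω = ⊤
  · exact Or.inr htop
  · left
    obtain ⟨x, hx⟩ : ∃ x, x ∉ (actE Ω c).St ω := by
      by_contra hcon
      push Not at hcon
      exact htop ((AddSubgroup.eq_top_iff' _).mpr hcon)
    have hA : ∀ a : ann c, p • a = 0 := by
      intro a
      rw [← Nat.cast_smul_eq_nsmul F, CharP.cast_eq_zero, zero_smul]
    obtain ⟨M, hBM, -, hM⟩ := A4 (Fact.out : p.Prime) hA _ hx
    exact A3 (actE Ω c) (Fact.out : p.Prime) φ0 (X.hfixT hc) (X.hd' hc) M hM (by rw [h0]; exact bot_le)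
      hBM

lemma two_le_Q : 2 ≤ Fintype.card F ^ (n - 1) := by
  have h2 : 2 ≤ Fintype.card F := Fintype.one_lt_card
  have hn := X.hn
  calc 2 ≤ Fintype.card F := h2
    _ = Fintype.card F ^ 1 := (pow_one _).symm
    _ ≤ Fintype.card F ^ (n - 1) := Nat.pow_le_pow_right (by omega) (by omega)

/-- in the regular case the number of fixed points of `E^c` is `φ0`. -/
lemma card_fixed (p : ℕ) [Fact p.Prime] [CharP F p] {c : Fin n → F} (hc : c ≠ 0) {ω0 : Ω}
    (h0 : (actE Ω c).St ω0 = ⊥) :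
    Nat.card {ω : Ω // ∀ f : Fin n → F, f ⬝ᵥ c = 0 → tv c f • ω = ω} = φ0 := by
  classical
  set Q := Fintype.card F ^ (n - 1) with hQ
  have hterm : ∀ ω : Ω, Nat.card ((actE Ω c).St ω) =
      if (actE Ω c).St ω = ⊤ then Q else 1 := by
    intro ω
    split_ifs with h
    · rw [h, hQ, ← card_ann hc]
      exact Nat.card_congr (AddSubgroup.topEquiv.toEquiv)
    · rcases X.orbit_or_top p hc h0 ω with ⟨a, ha⟩ | h'
      · rw [← ha, St_eq_of_orbit, h0]
        simp
      · exact absurd h' h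
  have hsum := X.sum_St hc
  rw [← hQ] at hsum
  rw [Finset.sum_congr rfl (fun ω _ => hterm ω), Finset.sum_ite, Finset.sum_const, Finset.sum_const,
    smul_eq_mul, smul_eq_mul, mul_one] at hsum
  have hcard : (Finset.univ.filter (fun ω : Ω => (actE Ω c).St ω = ⊤)).card +
      (Finset.univ.filter (fun ω : Ω => ¬ (actE Ω c).St ω = ⊤)).card = Fintype.card Ω := by
    rw [Finset.card_filter_add_card_filter_not, Finset.card_univ]
  have hgoal : Nat.card {ω : Ω // ∀ f : Fin n → F, f ⬝ᵥ c = 0 → tv c f • ω = ω} =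
      (Finset.univ.filter (fun ω : Ω => (actE Ω c).St ω = ⊤)).card := by
    rw [Nat.card_eq_fintype_card, Fintype.card_subtype]
    congr 1
    ext ω
    simp only [Finset.mem_filter, Finset.mem_univ, true_and]
    exact St_eq_top_iff.symm
  rw [hgoal]
  set k := (Finset.univ.filter (fun ω : Ω => (actE Ω c).St ω = ⊤)).card
  set m := (Finset.univ.filter (fun ω : Ω => ¬ (actE Ω c).St ω = ⊤)).card
  have hd := X.hd
  rw [← hQ] at hd
  have hQ2 : 2 ≤ Q := X.two_le_Q
  obtain ⟨Q', hQ'⟩ : ∃ Q', Q = Q' + 2 := ⟨Q - 2, by omega⟩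
  rw [hQ'] at hsum hd
  -- k * (Q'+2) + m = (Q'+2) * (φ0+1),  k + m = φ0 + Q' + 2
  have : (k : ℤ) * (Q' + 1) = φ0 * (Q' + 1) := by
    have h1 : (k : ℤ) * (Q' + 2) + m = (Q' + 2) * (φ0 + 1) := by exact_mod_cast hsum
    have h2 : (k : ℤ) + m = φ0 + (Q' + 2) := by
      have := hcard.trans hd
      exact_mod_cast this
    linarith
  have h3 : (k : ℤ) = φ0 := by
    have hpos : ((Q' : ℤ) + 1) ≠ 0 := by positivity
    exact mul_right_cancel₀ hpos this
  exact_mod_cast h3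


lemma htr (p : ℕ) [Fact p.Prime] [CharP F p] {c : Fin n → F} (hc : c ≠ 0) {ω0 : Ω}
    (h0 : (actE Ω c).St ω0 = ⊥) (ω ω' : Ω)
    (h : ∃ f : Fin n → F, f ⬝ᵥ c = 0 ∧ tv c f • ω ≠ ω)
    (h' : ∃ f : Fin n → F, f ⬝ᵥ c = 0 ∧ tv c f • ω' ≠ ω') :
    ∃ f : Fin n → F, f ⬝ᵥ c = 0 ∧ tv c f • ω = ω' := by
  have key : ∀ ω : Ω, (∃ f : Fin n → F, f ⬝ᵥ c = 0 ∧ tv c f • ω ≠ ω) →
      ∃ a, (actE Ω c).τ a ω0 = ω := by
    intro ω hω
    rcases X.orbit_or_top p hc h0 ω with h1 | h1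
    · exact h1
    · obtain ⟨f, hf, hne⟩ := hω
      exact absurd (St_eq_top_iff.mp h1 f hf) hne
  obtain ⟨a, ha⟩ := key ω h
  obtain ⟨a', ha'⟩ := key ω' h'
  refine ⟨(a' - a : ann c).1, (a' - a : ann c).2, ?_⟩
  rw [← actE_apply, ← ha, ← Equiv.Perm.mul_apply, ← (actE Ω c).add, sub_add_cancel, ha']

theorem caseI (p : ℕ) [Fact p.Prime] [CharP F p]
    [MulAction.IsPretransitive (SpecialLinearGroup (Fin n) F) Ω]
    (hexc : ¬ (n = 4 ∧ Fintype.card F = 2))
    (hI : ∃ c : Fin n → F, c ≠ 0 ∧ ∃ ω : Ω, (actE Ω c).St ω = ⊥) :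
    Fintype.card F ^ n - 1 ≤ (Fintype.card F - 1) * Fintype.card Ω := by
  have hn := X.hn
  have hI' : ∀ c : Fin n → F, c ≠ 0 → ∃ ω : Ω, (actE Ω c).St ω = ⊥ := by
    intro c hc
    obtain ⟨c0, hc0, ω0, h0⟩ := hI
    obtain ⟨g, hg⟩ := exists_SL_mulVec (by omega) hc0 hc
    refine ⟨g • ω0, ?_⟩
    have := St_bot_smul g h0
    rwa [hg] at this
  have hΦ : ∀ c : Fin n → F, c ≠ 0 →
      Nat.card {ω : Ω // ∀ f : Fin n → F, f ⬝ᵥ c = 0 → tv c f • ω = ω} = φ0 := by
    intro c hc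
    obtain ⟨ω0, h0⟩ := hI' c hc
    exact X.card_fixed p hc h0
  have htr : ∀ c : Fin n → F, c ≠ 0 → ∀ ω ω' : Ω,
      (∃ f : Fin n → F, f ⬝ᵥ c = 0 ∧ tv c f • ω ≠ ω) →
      (∃ f : Fin n → F, f ⬝ᵥ c = 0 ∧ tv c f • ω' ≠ ω') →
      ∃ f : Fin n → F, f ⬝ᵥ c = 0 ∧ tv c f • ω = ω' := by
    intro c hc ω ω' h h'
    obtain ⟨ω0, h0⟩ := hI' c hc
    exact X.htr p hc h0 ω ω' h h'
  rcases Nat.eq_zero_or_pos φ0 with hφ | hφ
  · exfalso
    have hne : Nonempty Ω := by
      rw [← Fintype.card_pos_iff, X.hd]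
      have := X.two_le_Q
      omega
    obtain ⟨ω1⟩ := hne
    have hnofix : ∀ c : Fin n → F, c ≠ 0 → ∀ ω : Ω,
        ∃ f : Fin n → F, f ⬝ᵥ c = 0 ∧ tv c f • ω ≠ ω := by
      intro c hc ω
      by_contra hcon
      push Not at hcon
      have h1 := hΦ c hc
      rw [hφ, Nat.card_eq_zero] at h1
      rcases h1 with h1 | h1
      · exact h1.false ⟨ω, hcon⟩
      · exact h1.false
    refine regular_false hn hexc (MulAction.stabilizer _ ω1) ?_ ?_
    · intro c hc g
      obtain ⟨f, hf, hfe⟩ := htr c hc (g • ω1) ω1 (hnofix c hc _) (hnofix c hc _)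
      exact ⟨f, hf, by rw [MulAction.mem_stabilizer_iff, mul_smul, hfe]⟩
    · intro c f hf hmem
      by_contra hcon
      push Not at hcon
      have h1 := X.hfix c f hcon.1 hcon.2 hf
      rw [hφ, Nat.card_eq_zero] at h1
      rcases h1 with h1 | h1
      · exact h1.false ⟨ω1, hmem⟩
      · exact h1.false
  · exact P10 hn φ0 hφ X.hd hΦ htr

lemma hge (p : ℕ) [Fact p.Prime] [CharP F p]
    (hII : ∀ c : Fin n → F, c ≠ 0 → ∀ ω : Ω, (actE Ω c).St ω ≠ ⊥)
    {c : Fin n → F} (hc : c ≠ 0) (ω : Ω) :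
    Fintype.card F ^ (n - 1) ≤ Fintype.card F * Nat.card ((actE Ω c).St ω) := by
  by_cases htop : (actE Ω c).St ω = ⊤
  · rw [htop, Nat.card_congr (AddSubgroup.topEquiv.toEquiv), card_ann hc]
    exact Nat.le_mul_of_pos_left _ Fintype.card_pos
  · obtain ⟨D, hD, hcard⟩ := dichotomy p X.hfix hc (X.hd' hc) ω (hII c hc ω) htop
    rw [card_ann hc] at hcard
    refine hcard.trans (Nat.mul_le_mul_left _ ?_)
    exact Nat.card_le_card_of_injective (fun x : D => (⟨x.1, hD x.1 x.2⟩ : (actE Ω c).St ω))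
      (fun x y h => Subtype.ext (congrArg (fun z : (actE Ω c).St ω => z.1) h))


theorem caseII (p : ℕ) [Fact p.Prime] [CharP F p]
    (hII : ∀ c : Fin n → F, c ≠ 0 → ∀ ω : Ω, (actE Ω c).St ω ≠ ⊥) :
    Fintype.card F ^ n - 1 ≤ (Fintype.card F - 1) * Fintype.card Ω := by
  classical
  have hn := X.hn
  set q := Fintype.card F with hq
  set Q := q ^ (n - 1) with hQ
  have hq2 : 2 ≤ q := Fintype.one_lt_card
  have hQ2 : 2 ≤ Q := X.two_le_Q
  have hqn : q ^ n = q * Q := by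
    rw [hQ, ← pow_succ']
    congr 1
    omega
  have hd : Fintype.card Ω = φ0 + Q := X.hd
  obtain ⟨k, hk⟩ : ∃ k, q = k + 1 := ⟨q - 1, by omega⟩
  have hk1 : 1 ≤ k := by omega
  by_cases hfx : ∃ c : Fin n → F, c ≠ 0 ∧ ∃ ω1 : Ω, (actE Ω c).St ω1 = ⊤
  · obtain ⟨c, hc, ω1, h1⟩ := hfx
    have hsum := X.sum_St hc
    have hle : ∑ ω : Ω, (Q + if ω = ω1 then k * Q else 0) ≤
        ∑ ω : Ω, q * Nat.card ((actE Ω c).St ω) := by
      apply Finset.sum_le_sum
      intro ω _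
      split_ifs with h
      · rw [h, h1, Nat.card_congr (AddSubgroup.topEquiv.toEquiv), card_ann hc, ← hq, ← hQ]
        apply le_of_eq
        rw [hk]
        ring
      · rw [add_zero]
        exact X.hge p hII hc ω
    rw [← Finset.mul_sum, hsum, Finset.sum_add_distrib, Finset.sum_const, Finset.sum_ite_eq'] at hle
    simp only [Finset.mem_univ, if_true, Finset.card_univ, smul_eq_mul] at hle
    rw [hd, ← hq, ← hQ] at hle
    rw [hqn, hd, hk, Nat.add_sub_cancel]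
    rw [hk] at hle
    -- (φ0 + Q) * Q + k * Q ≤ (k+1) * (Q * (φ0 + 1))
    have h3 : φ0 + Q + k ≤ (k + 1) * (φ0 + 1) := by
      have : (φ0 + Q + k) * Q ≤ ((k + 1) * (φ0 + 1)) * Q := by nlinarith
      exact Nat.le_of_mul_le_mul_right this (by omega)
    have h4 : (k + 1) * Q ≤ k * (φ0 + Q) + 1 := by nlinarith
    omega
  · push Not at hfx
    by_contra hlt
    push Not at hlt
    rw [hqn, hd, hk, Nat.add_sub_cancel] at hlt
    -- numerical consequences
    have hdle : ∀ c : Fin n → F, c ≠ 0 → (φ0 + Q) * Q ≤ q * (Q * (φ0 + 1)) := by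
      intro c hc
      have hsum := X.sum_St hc
      have hle : ∑ _ω : Ω, Q ≤ ∑ ω : Ω, q * Nat.card ((actE Ω c).St ω) :=
        Finset.sum_le_sum (fun ω _ => X.hge p hII hc ω)
      rw [← Finset.mul_sum, hsum, Finset.sum_const, Finset.card_univ, smul_eq_mul, hd] at hle
      exact hle
    obtain ⟨R, hR⟩ : k ∣ Q - 1 := by
      have := Nat.sub_dvd_pow_sub_pow q 1 (n - 1)
      rw [one_pow, hk, Nat.add_sub_cancel, ← hk] at this
      exact this
    have hQR : Q = k * R + 1 := by omega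
    have hc0 : (bv ⟨0, by omega⟩ : Fin n → F) ≠ 0 := bv_ne_zero _
    have h5 : φ0 + Q ≤ (k + 1) * (φ0 + 1) := by
      have := hdle _ hc0
      rw [hk] at this
      have h' : (φ0 + Q) * Q ≤ ((k + 1) * (φ0 + 1)) * Q := by nlinarith
      exact Nat.le_of_mul_le_mul_right h' (by omega)
    -- k * (φ0 + Q) < (k+1) * Q - 1
    have h6 : k * φ0 + 1 < Q := by
      have : k * (φ0 + Q) + 1 < (k + 1) * Q := by omega
      nlinarith
    have h7 : φ0 + 1 ≤ R := by
      rw [hQR] at h6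
      have : k * φ0 < k * R := by omega
      have := Nat.lt_of_mul_lt_mul_left this
      omega
    have h8 : φ0 + Q = (k + 1) * (φ0 + 1) := by
      apply le_antisymm h5
      rw [hQR]
      nlinarith
    -- equality termwise
    have heq : ∀ c : Fin n → F, c ≠ 0 → ∀ ω : Ω, q * Nat.card ((actE Ω c).St ω) = Q := by
      intro c hc ω
      have hsum := X.sum_St hc
      have hs : ∑ _ω : Ω, Q = ∑ ω : Ω, q * Nat.card ((actE Ω c).St ω) := by
        rw [← Finset.mul_sum, hsum, Finset.sum_const, Finset.card_univ, smul_eq_mul, hd, h8, ← hq,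
          ← hQ, hk]
        ring
      have := (Finset.sum_eq_sum_iff_of_le (fun ω _ => X.hge p hII hc ω)).mp hs ω (Finset.mem_univ _)
      exact this.symm
    have hne : Nonempty Ω := by
      rw [← Fintype.card_pos_iff, hd]
      omega
    obtain ⟨ω1⟩ := hne
    have hex : ∀ c : Fin n → F, ∃ D' : Submodule F (Fin n → F), c ≠ 0 →
        ((∀ f, f ∈ D' ↔ (f ⬝ᵥ c = 0 ∧
          tv c f ∈ MulAction.stabilizer (SpecialLinearGroup (Fin n) F) ω1)) ∧
          Module.finrank F D' = n - 2) := by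
      intro c
      by_cases hc : c = 0
      · exact ⟨⊥, fun h => absurd hc h⟩
      · obtain ⟨D, hD, hcard⟩ := dichotomy p X.hfix hc (X.hd' hc) ω1 (hII c hc ω1) (hfx c hc ω1)
        rw [card_ann hc, ← hq, ← hQ] at hcard
        have hq1 := heq c hc ω1
        have hcardle : Nat.card ((actE Ω c).St ω1) ≤ Nat.card D := by
          rw [← hq1] at hcard
          exact Nat.le_of_mul_le_mul_left hcard (by omega)
        have hset : (D : Set (ann c)) = ((actE Ω c).St ω1 : Set (ann c)) := by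
          apply Set.eq_of_subset_of_ncard_le (fun x hx => hD x hx) _ (Set.toFinite _)
          rw [← Nat.card_coe_set_eq, ← Nat.card_coe_set_eq]
          exact hcardle
        refine ⟨D.map (ann c).subtype, fun _ => ⟨?_, ?_⟩⟩
        · intro f
          rw [Submodule.mem_map]
          constructor
          · rintro ⟨x, hx, rfl⟩
            exact ⟨x.2, hD x hx⟩
          · rintro ⟨hf, hmem⟩
            refine ⟨⟨f, hf⟩, ?_, rfl⟩
            have : (⟨f, hf⟩ : ann c) ∈ ((actE Ω c).St ω1 : Set (ann c)) := hmem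
            rw [← hset] at this
            exact this
        · rw [Submodule.finrank_map_subtype_eq]
          have hDc : Nat.card D = Nat.card ((actE Ω c).St ω1) := by
            have := congrArg Set.ncard hset
            rw [← Nat.card_coe_set_eq, ← Nat.card_coe_set_eq] at this
            exact this
          have h9 : q * Nat.card D = q * q ^ (n - 2) := by
            rw [hDc, hq1, hQ, ← pow_succ']
            congr 1
            omega
          have h10 : Nat.card D = q ^ (n - 2) := Nat.eq_of_mul_eq_mul_left (by omega) h9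
          rw [Module.natCard_eq_pow_finrank (K := F), Nat.card_eq_fintype_card, ← hq] at h10
          exact Nat.pow_right_injective hq2 h10
    choose D hD using hex
    exact P9 hn (MulAction.stabilizer _ ω1) D (fun c hc => (hD c hc).1) (fun c hc => (hD c hc).2)

end Hyp

theorem lower (hn : 3 ≤ n) (hexc : ¬ (n = 4 ∧ Fintype.card F = 2))
    [MulAction.IsPretransitive (SpecialLinearGroup (Fin n) F) Ω] (hΩ : 1 < Fintype.card Ω) :
    Fintype.card F ^ n - 1 ≤ (Fintype.card F - 1) * Fintype.card Ω := by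
  classical
  obtain ⟨p, hp⟩ := CharP.exists F
  haveI : Fact p.Prime := ⟨CharP.char_is_prime F p⟩
  set q := Fintype.card F with hq
  set Q := q ^ (n - 1) with hQ
  have hq2 : 2 ≤ q := Fintype.one_lt_card
  have hqn : q ^ n = q * Q := by
    rw [hQ, ← pow_succ']
    congr 1
    omega
  let i0 : Fin n := ⟨0, by omega⟩
  let i1 : Fin n := ⟨1, by omega⟩
  have h01 : i0 ≠ i1 := by
    intro h
    have := congrArg Fin.val h
    simp [i0, i1] at this
  set φ0 := Nat.card {ω : Ω // tv (bv i0 : Fin n → F) (bv i1) • ω = ω} with hφ0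
  have hfix : ∀ v φ : Fin n → F, v ≠ 0 → φ ≠ 0 → φ ⬝ᵥ v = 0 →
      Nat.card {ω : Ω // tv v φ • ω = ω} = φ0 := by
    intro v φ hv hφ h
    obtain ⟨g, hg⟩ := P1 hn hv hφ h (bv_ne_zero i0) (bv_ne_zero i1) (bv_dot_bv h01.symm)
    exact card_fix_conj hg
  have hc0 : (bv i0 : Fin n → F) ≠ 0 := bv_ne_zero _
  have hfixT : ∀ a : ann (bv i0 : Fin n → F), a ≠ 0 →
      Nat.card {ω : Ω // (actE Ω (bv i0)).τ a ω = ω} = φ0 :=
    fun a ha => hfix _ a.1 hc0 (fun h0 => ha (Subtype.ext h0)) a.2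
  have hA1 := A1 (actE Ω (bv i0 : Fin n → F)) φ0 hfixT
  have hA2 := A2 (actE Ω (bv i0 : Fin n → F))
  rw [hA1, card_ann hc0, ← hq, ← hQ] at hA2
  have hle : φ0 ≤ Fintype.card Ω := by
    rw [hφ0, Nat.card_eq_fintype_card]
    exact Fintype.card_subtype_le _
  have hlt : φ0 < Fintype.card Ω := by
    rcases lt_or_eq_of_le hle with h | h
    · exact h
    · exfalso
      -- every transvection acts trivially
      have hall : ∀ v φ : Fin n → F, φ ⬝ᵥ v = 0 → ∀ ω : Ω, tv v φ • ω = ω := by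
        intro v φ hvφ ω
        by_cases hv : v = 0
        · rw [hv, tv_zero_left, one_smul]
        by_cases hφ : φ = 0
        · rw [hφ, tv_zero_right, one_smul]
        have h1 := hfix v φ hv hφ hvφ
        rw [h, Nat.card_eq_fintype_card] at h1
        by_contra hne
        have := Fintype.card_subtype_lt (p := fun ω : Ω => tv v φ • ω = ω) hne
        omega
      obtain ⟨a, b, hab⟩ := Fintype.one_lt_card_iff.mp hΩ
      obtain ⟨g, hg⟩ := MulAction.exists_smul_eq (SpecialLinearGroup (Fin n) F) a b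
      apply hab
      rw [← hg]
      exact (smul_eq_of_tv (by omega) a (fun v φ h => hall v φ h a) g).symm
  have hQ1 : 1 ≤ Q := Nat.one_le_pow _ _ (by omega)
  obtain ⟨e, he⟩ : ∃ e, Fintype.card Ω = φ0 + e := ⟨_, (Nat.add_sub_cancel' hle).symm⟩
  have he0 : 0 < e := by omega
  have hdvd : Q ∣ e := by
    have h1 : Fintype.card Ω + (Q - 1) * φ0 = e + Q * φ0 := by
      obtain ⟨Q', hQ'⟩ : ∃ Q', Q = Q' + 1 := ⟨Q - 1, by omega⟩
      rw [he, hQ', Nat.add_sub_cancel]
      ring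
    rw [h1] at hA2
    exact (Nat.dvd_add_left (Dvd.intro _ rfl)).mp hA2
  obtain ⟨μ, hμ⟩ := hdvd
  obtain ⟨k, hk⟩ : ∃ k, q = k + 2 := ⟨q - 2, by omega⟩
  rcases Nat.lt_or_ge μ 2 with h2 | h2
  · have hμ1 : μ = 1 := by
      rcases Nat.eq_zero_or_pos μ with h | h
      · rw [h, mul_zero] at hμ; omega
      · omega
    rw [hμ1, mul_one] at hμ
    have X : Hyp n F Ω φ0 := ⟨hn, hfix, by rw [he, hμ]⟩
    by_cases hI : ∃ c : Fin n → F, c ≠ 0 ∧ ∃ ω : Ω, (actE Ω c).St ω = ⊥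
    · exact X.caseI p hexc hI
    · push Not at hI
      exact X.caseII p hI
  · rw [hqn, he, hμ, hk]
    have : 2 * Q ≤ Q * μ := by nlinarith
    have h3 : (k + 2) * Q ≤ (k + 2 - 1) * (φ0 + Q * μ) := by
      have : k + 2 - 1 = k + 1 := by omega
      rw [this]
      nlinarith
    omega

end Cfsg.Agent.Lib.Helper14.MinIdx
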